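import Cfsg.Agent.Chev.Special.Check
import Cfsg.Agent.Chev.DataB2

/-! Kernel verification of the exceptional isogeny tables of type B2. -/

set_option autoImplicit false
set_option maxRecDepth 100000
set_option linter.style.longLine false

namespace CfsgLib.Chev.Special

/-- The exceptional isogeny of type B2 in characteristic 2. -/
def specB2 : Spec where
  p := 2
  inI := fun j => ([0, 3, 4, 7, 8] : List ℕ).elem j
  bar := fun j => ([1, 0, 3, 2, 5, 4, 7, 6, 9, 8] : List ℕ).getD j 0
  spanI := [(1, [(1, 5)]), (1, [(1, 2), (-1, 1)])]
  spanO := [(2, [(1, 3), (-1, 0)]), (1, [(1, 4)])]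

theorem specB2_valid : specB2.Valid DataB2.tbl where
  bar := by decide +kernel
  block := by decide +kernel
  span := by decide +kernel

end CfsgLib.Chev.Special
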